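import Cfsg.Agent.Lib.Fi.St8
import Cfsg.Agent.Lib.Fi.Sm
import Cfsg.Agent.Lib.Fi.Mu24

/-!
Bounds for automorphism groups by chains of elements, extensions by `S₃`.
-/

set_option autoImplicit false
set_option linter.unusedSectionVars false
set_option maxRecDepth 100000

namespace CA.Fs
open Subgroup Cfsg CA CA.Fi Equiv

section abstract
variable {O K G H : Type*} [Group O] [Group K] [Group G] [Group H]

theorem s3_norm [Finite O] {S : Subgroup O} (e : S ≃* Perm (Fin 3)) {c : O} (hc : c ∈ S) (h3 : c ^ 3 = 1) :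
    S ≤ normalizer (zpowers c : Set O) := fun x hx => mem_normalizer_zpowers (by
  have k : ∀ a b : Perm (Fin 3), b ^ 3 = 1 → a * b * a⁻¹ = b ∨ a * b * a⁻¹ = b * b := by decide
  rcases k (e ⟨x, hx⟩) (e ⟨c, hc⟩) (by rw [← map_pow]; exact (e.map_eq_one_iff).2 (Subtype.ext h3)) with h | h
  · rw [← map_inv, ← map_mul, ← map_mul] at h
    exact (show x * c * x⁻¹ = c from congrArg Subtype.val (e.injective h)).symm ▸ mem_zpowers c
  · rw [← map_inv, ← map_mul, ← map_mul, ← map_mul] at h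
    exact (show x * c * x⁻¹ = c * c from congrArg Subtype.val (e.injective h)).symm ▸
      mul_mem (mem_zpowers c) (mem_zpowers c))

theorem s3_conj [Finite O] (h : Nat.card O ≤ 24) {S0 S : Subgroup O} (e0 : S0 ≃* Perm (Fin 3))
    (e : S ≃* Perm (Fin 3)) {ρ c : O} (hc : c ∈ S0) (h3 : c ^ 3 = 1) (hρ : ρ * c * ρ⁻¹ ∉ S0) :
    ∃ a, S0.map (MulAut.conj a).toMonoidHom = S := by
  have : Fact (Nat.Prime 3) := ⟨by norm_num⟩
  have c6 : ∀ {T : Subgroup O}, (T ≃* Perm (Fin 3)) → Nat.card T = 6 := fun f => by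
    rw [Nat.card_congr f.toEquiv, Nat.card_perm, Nat.card_fin]; rfl
  have cC := card_zpowers_three h3 (by rintro rfl; simp at hρ)
  have le0 := s3_norm e0 hc h3
  have d6 := c6 e0 ▸ card_dvd_of_le le0
  have hN := (normalizer (zpowers c : Set O)).index_mul_card
  have h9 : ¬ 3 ^ (1 + 1) ∣ Nat.card O := fun h9 => by
    obtain ⟨P, h1, h2⟩ := Sylow.exists_subgroup_card_pow_succ h9 (cC.trans (pow_one 3).symm)
    have hP : P ≤ normalizer (zpowers c : Set O) := fun x hx => cent_le_norm c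
      (mem_centralizer_singleton_iff.2 (congrArg Subtype.val
        ((IsPGroup.isMulCommutative_of_card_eq_prime_sq h1).is_comm.comm ⟨x, hx⟩ ⟨c, h2 (mem_zpowers c)⟩)))
    have d9 := h1 ▸ card_dvd_of_le hP
    have : (normalizer (zpowers c : Set O)).index ≠ 1 := fun e1 => hρ (zpowers_le.2 hc
      ((mem_normalizer_iff.1 ((index_eq_one.1 e1).ge (mem_top ρ)) c).1 (mem_zpowers c)))
    have : (normalizer (zpowers c : Set O)).index ≠ 0 := index_ne_zero_of_finite
    have := Nat.le_of_dvd Nat.card_pos (Nat.lcm_dvd d6 d9)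
    norm_num at this
    nlinarith [show 2 ≤ (normalizer (zpowers c : Set O)).index by omega]
  have hm := norm_index_mod (by norm_num) (cC.trans (pow_one 3).symm) h9
  have : (normalizer (zpowers c : Set O)).index ≠ 1 := fun e1 => hρ (zpowers_le.2 hc
    ((mem_normalizer_iff.1 ((index_eq_one.1 e1).ge (mem_top ρ)) c).1 (mem_zpowers c)))
  have eN : S0 = normalizer (zpowers c : Set O) := eq_of_le_of_card_ge le0 (by
    rw [c6 e0]; nlinarith [show 4 ≤ (normalizer (zpowers c : Set O)).index by omega])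
  obtain ⟨c', h1, h2⟩ : ∃ c' : S, c' ^ 3 = 1 ∧ c' ≠ 1 := ⟨e.symm (swap 0 1 * swap 1 2),
    by rw [← map_pow, e.symm.map_eq_one_iff]; decide, by rw [Ne, e.symm.map_eq_one_iff]; decide⟩
  have h1' : (c' : O) ^ 3 = 1 := congrArg Subtype.val h1
  obtain ⟨a, ha⟩ := exists_conj_eq (by norm_num) rfl h9 _ _ cC
    (card_zpowers_three h1' fun e => h2 (Subtype.ext e))
  refine ⟨a, (eq_of_le_of_card_ge ?_ ?_).symm⟩
  · rw [eN, map_equiv_normalizer_eq, ha]; exact s3_norm e c'.2 h1'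
  · rw [card_map_of_injective (MulAut.conj a).injective, c6 e0, c6 e]

instance normal_inn : (MulAut.conj : K →* MulAut K).range.Normal :=
  ⟨by rintro _ ⟨x, rfl⟩ s; exact ⟨s x, (aut_conj s x).symm⟩⟩

/-- `G` acts faithfully on `K`, inducing all inner automorphisms, with quotient `S₃` -/
structure OutS (ψ : G →* MulAut K) : Prop where
  inj : Function.Injective ψ
  le : (MulAut.conj : K →* MulAut K).range ≤ ψ.range
  s3 : ∃ θ : G →* Perm (Fin 3), Function.Surjective θ ∧ θ.ker = (MulAut.conj : K →* MulAut K).range.comap ψ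

theorem OutS.quot {ψ : G →* MulAut K} (h : OutS ψ) (π : MulAut K →* O)
    (hπ : π.ker = (MulAut.conj : K →* MulAut K).range) :
    Nonempty (ψ.range.map π ≃* Perm (Fin 3)) ∧ (ψ.range.map π).comap π = ψ.range := by
  obtain ⟨θ, h1, h2⟩ := h.s3
  obtain ⟨e, -⟩ := exists_equiv_of_ker_eq (π.comp ψ).rangeRestrict θ (π.comp ψ).rangeRestrict_surjective h1
    (by rw [MonoidHom.ker_rangeRestrict, h2, ← MonoidHom.comap_ker, hπ])
  exact ⟨⟨(MulEquiv.subgroupCongr (MonoidHom.range_comp _ _).symm).trans e⟩,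
    comap_map_eq_self (hπ.le.trans h.le)⟩

theorem OutS.iso [Finite K] (hZ : center K = ⊥) (hb : Nat.card (MulAut K) ≤ 24 * Nat.card K)
    {ψ : G →* MulAut K} {ψ0 : H →* MulAut K} (h : OutS ψ) (h0 : OutS ψ0) {s : MulAut K} {c : H}
    (h3 : c ^ 3 = 1) (hs : s * ψ0 c * s⁻¹ ∉ ψ0.range) : Nonempty (G ≃* H) := by
  let π := QuotientGroup.mk' (MulAut.conj : K →* MulAut K).range
  obtain ⟨⟨e⟩, h1⟩ := h.quot π (QuotientGroup.ker_mk' _)
  obtain ⟨⟨e0⟩, h2⟩ := h0.quot π (QuotientGroup.ker_mk' _)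
  obtain ⟨a, ha⟩ := s3_conj (by
      have := (MulAut.conj : K →* MulAut K).range.index_mul_card
      rw [card_range_conj hZ] at this
      exact Nat.le_of_mul_le_mul_right (this ▸ hb) Nat.card_pos) e0 e (ρ := π s) (c := π (ψ0 c))
    ⟨_, ⟨c, rfl⟩, rfl⟩ (by rw [← map_pow, ← map_pow, h3, map_one, map_one])
    fun e => hs (h2.le (by rwa [mem_comap, map_mul, map_mul, map_inv]))
  obtain ⟨a, rfl⟩ := QuotientGroup.mk'_surjective _ a
  have : ψ0.range.map (MulAut.conj a).toMonoidHom = ψ.range := by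
    rw [← h1, ← ha]
    ext x
    rw [mem_comap, mem_map_equiv, mem_map_equiv, ← h2, mem_comap, h2]
    simp [π]
  exact ⟨(MonoidHom.ofInjective h.inj).trans ((MulEquiv.subgroupCongr this.symm).trans
    (((MulAut.conj a).subgroupMap _).symm.trans (MonoidHom.ofInjective h0.inj).symm))⟩

theorem outS {F : Subgroup G} [F.Normal] (e : F ≃* K) (hZ : center K = ⊥)
    (hC : centralizer (F : Set G) ≤ F) (q : G ⧸ F ≃* Perm (Fin 3)) :
    OutS ((MulAut.congr e).toMonoidHom.comp MulAut.conjNormal) := by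
  have k : ∀ x : F, ((MulAut.congr e).toMonoidHom.comp MulAut.conjNormal) (x : G) = MulAut.conj (e x) :=
    fun x => by ext y; simp [MulAut.conjNormal_val]
  have inj : Function.Injective ((MulAut.congr e).toMonoidHom.comp (MulAut.conjNormal (H := F))) :=
    (injective_iff_map_eq_one _).2 fun x hx => by
      have h1 : x ∈ F := hC fun y hy => by
        have := congrArg Subtype.val (DFunLike.congr_fun ((MulAut.congr e).map_eq_one_iff.1 hx) ⟨y, hy⟩)
        exact (mul_inv_eq_iff_eq_mul.1 this).symm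
      rw [k ⟨x, h1⟩, map_eq_one_iff _ (conj_injective hZ), e.map_eq_one_iff] at hx
      exact congrArg Subtype.val hx
  refine ⟨inj, by rintro _ ⟨x, rfl⟩; exact ⟨e.symm x, by rw [k, e.apply_symm_apply]⟩,
    q.toMonoidHom.comp (QuotientGroup.mk' F), q.surjective.comp (QuotientGroup.mk'_surjective F), ?_⟩
  ext x
  rw [MonoidHom.mem_ker, MonoidHom.comp_apply, MulEquiv.coe_toMonoidHom, q.map_eq_one_iff,
    QuotientGroup.mk'_apply, QuotientGroup.eq_one_iff]
  exact ⟨fun h => ⟨_, (k ⟨x, h⟩).symm⟩, fun ⟨y, h⟩ => inj ((k (e.symm y)).trans (by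
    rw [e.apply_symm_apply]; exact h)) ▸ (e.symm y).2⟩

/-- automorphisms of `K` fixing the members of `S` -/
def FxA (K : Subgroup G) (S : Set G) : Subgroup (MulAut K) where
  carrier := {α | ∀ x : K, (x : G) ∈ S → α x = x}
  one_mem' _ _ := rfl
  mul_mem' ha hb x hx := by rw [MulAut.mul_apply, hb x hx, ha x hx]
  inv_mem' {a} ha x hx := by rw [MulAut.inv_apply, MulEquiv.symm_apply_eq, ha x hx]

variable [Finite G] {M : Subgroup G} {S S' : Set G} {c k : ℕ}

theorem FxA.mono (h : S ⊆ S') (ih : Nat.card (FxA M S) ≤ c) : Nat.card (FxA M S') ≤ c :=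
  (card_le_of_le (show FxA M S' ≤ FxA M S from fun _ ha x hx => ha x (h hx))).trans ih

theorem FxA.fin (h : closure S = M) : Nat.card (FxA M S) ≤ 1 := by
  subst h
  refine (card_le_one_iff_eq_bot _).2 (eq_bot_iff.2 fun α hα => MulEquiv.toMonoidHom_injective ?_)
  refine MonoidHom.eq_of_eqOn_dense (closure_closure_coe_preimage) fun x hx => hα x hx

theorem FxA.step {y : G} (hy : y ∈ M) {T : Set G} (h : ∀ α ∈ FxA M S, (α ⟨y, hy⟩ : G) ∈ T)
    (hk : T.ncard ≤ k) (ih : Nat.card (FxA M (insert y S)) ≤ c) : Nat.card (FxA M S) ≤ k * c := by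
  rw [← (MulAction.stabilizer (FxA M S) (⟨y, hy⟩ : M)).index_mul_card, MulAction.index_stabilizer]
  refine Nat.mul_le_mul (le_trans ?_ hk) (le_trans ?_ ih)
  · exact Set.ncard_le_ncard_of_injOn Subtype.val (by rintro _ ⟨α, rfl⟩; exact h _ α.2)
      Subtype.val_injective.injOn
  · refine Nat.card_le_card_of_injective (fun α => ⟨α.1.1, fun x hx => hx.elim (fun e => ?_) (α.1.2 x)⟩)
      fun α β e => Subtype.ext (Subtype.ext (congrArg Subtype.val e :))
    obtain rfl : x = ⟨y, hy⟩ := Subtype.ext e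
    exact α.2

theorem FxA.top : FxA M ∅ = ⊤ := eq_top_iff.2 fun _ _ _ h => h.elim

theorem FxA.evw {α : MulAut M} {a b : ℕ → G} (ha : ∀ j, a j ∈ M) (h : ∀ j, (α ⟨a j, ha j⟩ : G) = b j)
    (w : List ℕ) : (α ⟨ev a w, ev_mem fun j _ => ha j⟩ : G) = ev b w := by
  have : (⟨ev a w, ev_mem fun j _ => ha j⟩ : M) = ev (fun j => ⟨a j, ha j⟩) w :=
    Subtype.ext (map_ev M.subtype (fun j => ⟨a j, ha j⟩) w).symm
  rw [this]
  exact (map_ev (M.subtype.comp α.toMonoidHom) _ w).trans (congrArg (ev · w) (funext h))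

theorem cls_split (φ : G →* O) {k k' p : ℕ} {Y : Fin k → Subgroup G} {Y' : Fin k' → Subgroup G}
    (cl : Fin k' → ℕ)
    (ha : ∀ X : Subgroup G, Nat.card X = p → X ≤ φ.ker → ∃ i x, X.map (MulAut.conj x).toMonoidHom = Y i)
    (hb : ∀ i y, ∃ x j, φ x = φ y ∧ (Y i).map (MulAut.conj x).toMonoidHom = Y' j ∧ cl j = i)
    (hc : ∀ i j, (∃ x ∈ φ.ker, (Y' i).map (MulAut.conj x).toMonoidHom = Y' j) → i = j) :
    (∀ X : Subgroup G, Nat.card X = p → X ≤ φ.ker →
      ∃ j, ∃ x ∈ φ.ker, X.map (MulAut.conj x).toMonoidHom = Y' j) ∧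
    ∀ i j, (∃ x, (Y i).map (MulAut.conj x).toMonoidHom = Y j) → i = j := by
  refine ⟨fun X h1 h2 => ?_, ?_⟩
  · obtain ⟨i, x, e⟩ := ha X h1 h2
    obtain ⟨y, j, e1, e2, -⟩ := hb i x⁻¹
    exact ⟨j, y * x, by simp [MonoidHom.mem_ker, e1], by rw [← map_conj_conj, e, e2]⟩
  · rintro i j ⟨x, e⟩
    obtain ⟨y, a, e1, e2, e3⟩ := hb i x
    obtain ⟨z, b, e4, e5, e6⟩ := hb j 1
    obtain rfl := hc a b ⟨z * x * y⁻¹, by simp [MonoidHom.mem_ker, e1, e4], by
      rw [← e2, ← e5, ← e, map_conj_conj, map_conj_conj, inv_mul_cancel_right]⟩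
    exact Fin.ext (e3.symm.trans e6)

theorem cls_equiv (e : H ≃* G) {N : Subgroup H} (hN : M = N.map (e : H →* G)) {k p : ℕ}
    {Y : Fin k → Subgroup G} (h1 : ∀ i, Y i ≤ M ∧ Nat.card (Y i) = p)
    (h2 : ∀ i j, (∃ x, (Y i).map (MulAut.conj x).toMonoidHom = Y j) → i = j)
    (h3 : ∀ X : Subgroup G, Nat.card X = p → X ≤ M → ∃ i x, X.map (MulAut.conj x).toMonoidHom = Y i) :
    ∃ Y : Fin k → Subgroup H, (∀ i, Y i ≤ N ∧ Nat.card (Y i) = p) ∧
      (∀ i j, (∃ x, (Y i).map (MulAut.conj x).toMonoidHom = Y j) → i = j) ∧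
      ∀ X : Subgroup H, X ≤ N → Nat.card X = p → ∃ i x, X.map (MulAut.conj x).toMonoidHom = Y i := by
  have hf : Function.Injective (e : H →* G) := e.injective
  have hc : ∀ (X : Subgroup H) x, (X.map (MulAut.conj x).toMonoidHom).map (e : H →* G) =
      (X.map (e : H →* G)).map (MulAut.conj (e x)).toMonoidHom := fun X x => by
    rw [map_map, map_map]; congr 1; ext y; simp
  have hY : ∀ i, ((Y i).comap (e : H →* G)).map (e : H →* G) = Y i := fun i =>
    map_comap_eq_self_of_surjective e.surjective _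
  refine ⟨fun i => (Y i).comap (e : H →* G), fun i => ⟨(map_le_map_iff_of_injective hf).1 (by
    rw [hY, ← hN]; exact (h1 i).1), by rw [← card_map_of_injective hf, hY, (h1 i).2]⟩, ?_, fun X hX hp => ?_⟩
  · rintro i j ⟨x, hx⟩
    exact h2 i j ⟨e x, by rw [← hY i, ← hc, hx, hY]⟩
  · obtain ⟨i, x, hx⟩ := h3 (X.map (e : H →* G)) (by rw [card_map_of_injective hf, hp]) (hN ▸ map_mono hX)
    obtain ⟨y, rfl⟩ := e.surjective x
    exact ⟨i, y, map_injective hf (by rw [hc, hx, hY])⟩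

end abstract

/-- the values of `f` on `l` are distinct -/
noncomputable def injL {α : Type} (f : α → ℕ) (l : List α) : ℕ → Bool :=
  List.rec (fun _ => true) (fun a _ r X => frc (f a) fun p => an (nt (tb X p)) (frc (Nat.lor X (bit p)) r)) l

theorem injL_spec {α : Type} {f : α → ℕ} {l : List α} {X : ℕ} (e : injL f l X = true) :
    (l.map f).Nodup ∧ ∀ a ∈ l, X.testBit (f a) = false := by
  induction l generalizing X with
  | nil => simp
  | cons a l ih =>
    have e0 : (frc (f a) fun p => an (nt (tb X p)) (frc (Nat.lor X (bit p)) (injL f l))) = true := e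
    simp only [frc_eq, an_iff, nt_iff, tb_eq] at e0
    obtain ⟨h1, h2⟩ := ih e0.2
    have h4 : ∀ q ∈ l, X.testBit (f q) = false ∧ f a ≠ f q := fun q hq => by
      simpa [Nat.testBit_or] using h2 q hq
    refine ⟨List.nodup_cons.2 ⟨fun h => ?_, h1⟩, List.forall_mem_cons.2 ⟨e0.1, fun q hq => (h4 q hq).1⟩⟩
    obtain ⟨q, hq, e⟩ := List.mem_map.1 h
    exact (h4 q hq).2 e.symm

/-- number of members of `l` with `f` -/
noncomputable def cntL {α : Type} (f : α → Bool) (l : List α) : ℕ → ℕ :=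
  List.rec (fun k => k) (fun a _ r k => frc (cnd (f a) (Nat.succ k) k) r) l

theorem cntL_eq {α : Type} (f : α → Bool) (l : List α) (k : ℕ) : cntL f l k = (l.filter f).length + k := by
  induction l generalizing k with
  | nil => simp [cntL]
  | cons a l ih =>
    have : cntL f (a :: l) k = frc (cnd (f a) (Nat.succ k) k) (cntL f l) := rfl
    rw [this, frc_eq, ih, List.filter_cons]
    cases f a <;> simp; omega

/-- all concatenations -/
noncomputable def prodL (A B : List (List ℕ)) : List (List ℕ) :=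
  List.rec [] (fun a _ r => List.rec r (fun b _ s => cc a b :: s) B) A

section
variable {L L' : LD} {G G' : Type*} [Group G] [Group G'] {g t : ℕ → G} {g' t' : ℕ → G'}
  {W E Φ Φ' : List (List ℕ)} {M : Subgroup G} {c k m : ℕ} {w u v y f : List ℕ}

/-- the values of a list of words -/
def WS (g : ℕ → G) (W : List (List ℕ)) : Set G := {x | ∃ w ∈ W, x = ev g w}

theorem WS_cons : WS g (w :: W) = insert (ev g w) (WS g W) := by ext; simp [WS]

theorem WS_nil : WS g [] = ∅ := by simp [WS]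

theorem LM.ws_conj (h : LM L g t) (e : allZ (fun a b => L.eqW (cc u b) (cc a u)) Φ Φ' = true) :
    WS (fun i => ev g u * g i * (ev g u)⁻¹) Φ' ⊆ WS g Φ := by
  rintro _ ⟨b, hb, rfl⟩
  obtain ⟨a, ha, e⟩ := allZ_sound e b hb
  exact ⟨a, ha, (ev_conj _ _ _).trans (h.conj_eq e)⟩

theorem LM.ws_conj' (h : LM L g t) (e : allZ (fun b a => L.eqW (cc u b) (cc a u)) Φ' Φ = true) :
    WS g Φ ⊆ WS (fun i => ev g u * g i * (ev g u)⁻¹) Φ' := by
  rintro _ ⟨a, ha, rfl⟩
  obtain ⟨b, hb, e⟩ := allZ_sound e a ha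
  exact ⟨b, hb, ((ev_conj _ _ _).trans (h.conj_eq e)).symm⟩

theorem KG_conj_top {r : ℕ} (h : KG g r = ⊤) (x : G) : KG (fun i => x * g i * x⁻¹) r = ⊤ := by
  rw [eq_top_iff, ← map_top_of_surjective (MulAut.conj x).toMonoidHom (MulAut.conj x).surjective, ← h, KG,
    MonoidHom.map_closure]
  exact closure_mono (by rintro _ ⟨_, ⟨i, hi, rfl⟩, rfl⟩; exact ⟨i, hi, rfl⟩)

/-- every member of `M` is given by a word of `E` over the alphabet `W` -/
def En (g : ℕ → G) (W E : List (List ℕ)) (M : Subgroup G) : Prop := ∀ x ∈ M, ∃ u ∈ E, ev g (fl W u) = x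

/-- the words of `E` give `c` different elements -/
noncomputable def LD.enChk (L : LD) (W E : List (List ℕ)) (m c : ℕ) : Bool :=
  an (allL (wOK L.r) W) (an (Nat.beq (cntL (fun _ => true) E 0) c)
    (injL (fun u => Nat.mod (L.key (fl W u)) m) E 0))

theorem LM.en [Finite G] (h : LM L g t) (hW : ∀ w ∈ W, ev g w ∈ M) (hc : Nat.card M ≤ c)
    (e : L.enChk W E m c = true) : En g W E M ∧ Nat.card M = c := by
  simp only [LD.enChk, an_iff, allL_iff, wOK_iff, beq_iff, cntL_eq, List.filter_true, add_zero] at e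
  have h1 := (injL_spec e.2.2).1
  have h2 : ((fun u => ev g (fl W u)) '' (E.toFinset : Set (List ℕ))).ncard = c := by
    rw [Set.InjOn.ncard_image, Set.ncard_coe_finset, List.toFinset_card_of_nodup h1.of_map, e.2.1]
    exact fun u hu v hv e' => List.inj_on_of_nodup_map h1 (by simpa using hu) (by simpa using hv)
      (congrArg (Nat.mod · m) (h.key (fl_lt e.1 u) (fl_lt e.1 v) e'))
  have h3 : (fun u => ev g (fl W u)) '' (E.toFinset : Set (List ℕ)) = M :=
    Set.eq_of_subset_of_ncard_le (by rintro _ ⟨u, -, rfl⟩; exact ev_fl_mem hW u) (h2 ▸ hc)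
  exact ⟨fun x hx => (h3.ge hx).imp fun u hu => ⟨by simpa using hu.1, hu.2⟩, by rw [← h2, h3]; rfl⟩

theorem LM.cmW_of (h : LM L g t) (hu : ∀ i ∈ u, i < L.r) (hv : ∀ i ∈ v, i < L.r)
    (e : Commute (ev g u) (ev g v)) : L.cmW u v = true := by
  have h1 : ∀ i ∈ u ++ v, i < L.r := List.forall_mem_append.2 ⟨hu, hv⟩
  have h2 : ∀ i ∈ v ++ u, i < L.r := List.forall_mem_append.2 ⟨hv, hu⟩
  simp only [LD.cmW, LD.eqW, an_iff, wOK_iff, allL_iff, beq_iff, cc_eq]
  refine ⟨h1, h2, fun b hb => h.inj _ (h.ap h1 (h.bs b hb)).1 _ (h.ap h2 (h.bs b hb)).1 ?_⟩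
  rw [← (h.ap h1 (h.bs b hb)).2, ← (h.ap h2 (h.bs b hb)).2, ev_append, ev_append, e.eq]

theorem KG_le_lets {r : ℕ} : KG g r ≤ KW g (lets r) := closure_mono (by
  rintro _ ⟨i, hi, rfl⟩
  exact ⟨[i], List.mem_map.2 ⟨i, List.mem_range.2 hi, rfl⟩, by simp⟩)

/-- a word fixes the base -/
noncomputable def LD.trv (L : LD) (w : List ℕ) : Bool := allL (fun b => Nat.beq (apW L.tab w b) b) L.bs

theorem LM.trv (h : LM L g t) (hw : ∀ i ∈ w, i < L.r) : L.trv w = true ↔ ev g w = 1 := by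
  simp only [LD.trv, allL_iff, beq_iff]
  exact ⟨fun e => h.faith _ fun b hb => (h.commute_iff hw (h.bs b hb)).2 (e b hb),
    fun e b hb => (h.commute_iff hw (h.bs b hb)).1 (e ▸ Commute.one_left _)⟩

/-- the relations `R` hold and the relations `N` fail -/
noncomputable def LD.acc (L : LD) (Φ R N : List (List ℕ)) (y : List ℕ) : Bool :=
  an (allL (fun τ => L.trv (fl (y :: Φ) τ)) R) (allL (fun τ => nt (L.trv (fl (y :: Φ) τ))) N)

/-- at most `k` possible images of `y` -/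
noncomputable def LD.ubChk (L : LD) (W E : List (List ℕ)) (f : List ℕ) (Φ : List (List ℕ)) (y ζ : List ℕ)
    (R N : List (List ℕ)) (k : ℕ) : Bool :=
  an (allL (wOK L.r) (y :: Φ)) (an (allL (wOK L.r) W) (an (L.eqW (fl Φ ζ) f) (an (L.cmW y f)
    (an (L.acc Φ R N y) (Nat.ble (cntL (fun u => L.acc Φ R N (fl W u)) E 0) k)))))

theorem LM.ubA [Finite G] (h : LM L g t) (hE : En g W E (centralizer {ev g f}))
    (hM : ∀ w ∈ y :: Φ, ev g w ∈ M) (ζ : List ℕ) (R N : List (List ℕ))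
    (e : L.ubChk W E f Φ y ζ R N k = true) (ih : Nat.card (FxA M (WS g (y :: Φ))) ≤ c) :
    Nat.card (FxA M (WS g Φ)) ≤ k * c := by
  simp only [LD.ubChk, an_iff (a := allL _ _), an_iff (a := L.eqW _ _), an_iff (a := L.cmW _ _),
    an_iff (a := L.acc _ _ _ _), allL_iff, wOK_iff, ble_iff, cntL_eq, add_zero] at e
  obtain ⟨e1, e2, e3, e4, e5, e6⟩ := e
  have hy := hM y List.mem_cons_self
  have hΦ := fun w hw => hM w (List.mem_cons_of_mem _ hw)
  refine FxA.step hy (T := (fun u => ev g (fl W u)) '' (E.filter fun u => L.acc Φ R N (fl W u)).toFinset)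
    (fun α hα => ?_) ((Set.ncard_image_le (Set.toFinite _)).trans (by
      rw [Set.ncard_coe_finset]; exact (List.toFinset_card_le _).trans e6)) (WS_cons (g := g) ▸ ih)
  have m1 := nth_prop (P := fun w => ev g w ∈ M) (d := []) M.one_mem hΦ
  have k1 : ∀ j, (α ⟨ev g (nth [] Φ j), m1 j⟩ : G) = ev g (nth [] Φ j) := fun j => (nth_mem_or [] Φ j).elim
    (fun e => congrArg Subtype.val (hα ⟨_, m1 j⟩ ⟨_, e, rfl⟩)) fun e => by
      simp only [e]; exact congrArg Subtype.val (map_one α)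
  have hf : ev g f ∈ M := h.eqW e3 ▸ ev_fl_mem hΦ ζ
  have k2 : (α ⟨_, hf⟩ : G) = ev g f := by simpa only [← ev_fl, h.eqW e3] using FxA.evw m1 k1 ζ
  obtain ⟨u, hu, e7⟩ := hE (α ⟨_, hy⟩) (mem_centralizer_singleton_iff.2 (k2 ▸ congrArg Subtype.val
    (Commute.map (show Commute (⟨_, hy⟩ : M) ⟨_, hf⟩ from Subtype.ext (h.cmW e4).eq) α).eq))
  have k3 : ∀ τ, L.trv (fl (fl W u :: Φ) τ) = L.trv (fl (y :: Φ) τ) := fun τ => by
    have := FxA.evw (α := α) (nth_prop (P := fun w => ev g w ∈ M) (d := []) M.one_mem hM)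
      (b := fun j => ev g (nth [] (fl W u :: Φ) j)) (fun j => by cases j; exacts [e7.symm, k1 _]) τ
    rw [Bool.eq_iff_iff, h.trv (fl_lt e1 τ), h.trv (fl_lt (List.forall_mem_cons.2 ⟨fl_lt e2 u,
      fun w hw => e1 w (List.mem_cons_of_mem _ hw)⟩) τ), ev_fl, ← this, OneMemClass.coe_eq_one,
      map_eq_one_iff α α.injective, Subtype.ext_iff, ev_fl]; rfl
  refine ⟨u, ?_, e7⟩
  simp only [List.coe_toFinset, List.mem_filter, Set.mem_ofPred_eq, hu, true_and]
  simpa only [LD.acc, k3] using e5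

theorem LM.le_CZ (h : LM L g t) {Z : List (List ℕ)} {H : Subgroup G} (hZ : H ≤ CZ g Z) {Ψ : List (ℕ × Cw)}
    (ζ : List ℕ) (e : an (allL L.ptOK Ψ) (L.eqW (fl (Z ++ ptW Ψ) ζ) w) = true) : H ⊓ CP t Ψ ≤ CZ g [w] := by
  rw [an_iff, allL_iff] at e
  intro x hx
  rw [CZ_one, mem_centralizer_singleton_iff, ← h.eqW e.2]
  refine (mem_centralizer_singleton_iff.1 (ev_fl_mem (H := centralizer {x}) (fun v hv => ?_) ζ)).symm
  rcases List.mem_append.1 hv with hv | hv
  · exact mem_centralizer_singleton_iff.2 (mem_CZ.1 (hZ hx.1) v hv).symm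
  · obtain ⟨a, ha, rfl⟩ := mem_ptW hv
    exact mem_centralizer_singleton_iff.2 ((h.ptOK (e.1 a ha)).2.2 ▸ (mem_CP.1 hx.2 a ha).symm)

theorem LA.homTop [Finite G] (h : LA L g t) (hG : KG g L.r = ⊤) (h' : LM L' g' t') {τ : ℕ → ℕ}
    (e : ∀ i < L.r, L.homChk L' τ W i = true) (l : List ℕ) (e2 : L.bsChk L' τ l = true) :
    ∃ φ : G →* G', ∀ w, wOK L.r w = true → φ (ev g w) = ev g' (fl W w) := by
  obtain ⟨φ, -, h2⟩ := h.homT h' e l e2
  exact ⟨φ.comp ((MonoidHom.id G).codRestrict _ fun x => hG.ge (mem_top x)), fun w hw => h2 w (wOK_iff.1 hw)⟩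

/-- words of even length -/
noncomputable def evChk (r : ℕ) (W : List (List ℕ)) : Bool :=
  allL (fun w => an (wOK r w) (Nat.beq (Nat.mod w.length 2) 0)) W

theorem LA.even_mem (h : LA L g t) {r : ℕ} (hr : r ≤ L.r0) (hM : ∀ i < r, ev g [0, i] ∈ M)
    (e : evChk r W = true) : ∀ w ∈ W, ev g w ∈ M := fun w hw => by
  have e := allL_iff.1 e w hw
  rw [an_iff, wOK_iff, beq_iff] at e
  have : ∀ w : List ℕ, (∀ i ∈ w, i < r) →
      (w.length % 2 = 0 → ev g w ∈ M) ∧ (w.length % 2 = 1 → g 0 * ev g w ∈ M) := fun w hw => by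
    induction w with
    | nil => exact ⟨fun _ => one_mem _, by simp⟩
    | cons i w ih =>
      have hi := hw i List.mem_cons_self
      have h1 := hM i hi
      obtain ⟨h2, h3⟩ := ih fun j hj => hw j (List.mem_cons_of_mem _ hj)
      simp only [ev_cons, ev_nil, mul_one, List.length_cons] at h1 ⊢
      refine ⟨fun e => ?_, fun e => mul_assoc (g 0) _ _ ▸ mul_mem h1 (h2 (by omega))⟩
      have := mul_mem (inv_mem h1) (h3 (by omega))
      rwa [mul_inv_rev, mul_assoc, inv_mul_cancel_left, inv_eq_of_mul_eq_one_right (h.sq i (hi.trans_le hr))]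
        at this
  exact (this w e.1).1 e.2

/-- the points with a given label -/
def SL (t : ℕ → G) (n : ℕ) (lab : ℕ → ℕ) (k : ℕ) : Set G := {x | ∃ p < n, lab p = k ∧ t p = x}

theorem LA.invL [Finite G] (h : LA L g t) {lab : ℕ → ℕ}
    (e : allL (fun w => an (wOK L.r w) (allN (fun p => Nat.beq (lab (apW L.tab w p)) (lab p)) L.n)) W = true)
    (k : ℕ) : InvBy (KW g W) (SL t L.n lab k) := fun x hx y hy => by
  simp only [allL_iff, an_iff, wOK_iff, allN_iff, beq_iff] at e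
  refine (mem_set_normalizer_iff.1 (KW_le.2 (fun w hw => mem_normalizer_fintype ?_) hx) y).1 hy
  rintro _ ⟨p, hp, rfl, rfl⟩
  exact ⟨_, (h.ap (e w hw).1 hp).1, (e w hw).2 p hp, (h.ap (e w hw).1 hp).2.symm⟩

/-- the number of fixed points with a given label -/
noncomputable def LD.fc (L : LD) (lab : ℕ → ℕ) (k : ℕ) (w : List ℕ) : ℕ :=
  cntF (fun p => an (Nat.beq (lab p) k) (Nat.beq (apW L.tab w p) p)) L.n

theorem LA.fc (h : LA L g t) (lab : ℕ → ℕ) (k : ℕ) (hw : wOK L.r w = true) :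
    (SL t L.n lab k ∩ (centralizer (zpowers (ev g w) : Set G) : Set G)).ncard = L.fc lab k w := by
  rw [LD.fc, ← ncard_cntF h.inj, cent_zpowers]
  congr 1
  ext x
  simp only [an_iff, beq_iff, SL, Set.mem_inter_iff, Set.mem_ofPred_eq, SetLike.mem_coe,
    mem_centralizer_singleton_iff]
  exact ⟨fun ⟨⟨p, hp, e1, e2⟩, e3⟩ => ⟨p, hp, ⟨e1, (h.commute_iff (wOK_iff.1 hw) hp).1 (e2 ▸ e3.symm)⟩, e2⟩,
    fun ⟨p, hp, e1, e2⟩ => ⟨⟨p, hp, e1.1, e2⟩, e2 ▸ ((h.commute_iff (wOK_iff.1 hw) hp).2 e1.2).symm⟩⟩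

end

end CA.Fs
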